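import Cfsg.Agent.Lib.MinE6.Sys
import Cfsg.Agent.Lib.Chev.Mono3
import Cfsg.Agent.Lib.Chev.Mono2
import Cfsg.Agent.Lib.Chev.Torus
import Cfsg.Agent.Lib.Chev.Tables
import Cfsg.Agent.Lib.Lie.AxOf
import Cfsg.Agent.Lib.PresSLn.Inj
import Cfsg.Agent.Lib.Schur.SLnStem
import Cfsg.Agent.S1063

/-!
# The homomorphism `SL₆(F) → E₆(F)` (part J of S2340)

`exists_hom`: root elements `y i j a` of a group satisfying the Steinberg relations and the multiplicativity of the
torus elements come from a homomorphism `SL_n(F) → Γ`: the graph subgroup of `SL_n(F) × Γ` maps bijectively to `SL_n(F)`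
(`PresSLn.Inj.bij_of_steinberg`).
In `E₆`, all structure constants of the `A₅`-subsystem are `1`: `x'_ij(a) = x (rt i j) (-a)` satisfy the relations.
-/

set_option autoImplicit false
set_option linter.unusedSectionVars false
set_option linter.unusedVariables false

namespace Cfsg.Agent.Lib.MinE6.SLHom

open Matrix Cfsg Lie Subgroup
open Cfsg.Agent.Lib.PresSLn.Rel Cfsg.Agent.Lib.PresSLn.Coset Cfsg.Agent.Lib.PresSLn.Inj
open Cfsg.Agent.Lib.Schur.SLnStem (tt tt_of_ne tt_add tt_stHyp)
open scoped commutatorElement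

section abs

variable {ι : Type*} [Fintype ι] [DecidableEq ι] {F : Type*} [Field F] {Γ : Type*} [Group Γ]

lemma ww_map {Γ' : Type*} [Group Γ'] {x : ι → ι → F → Γ} {w : ι → ι → F → Γ'} (f : Γ →* Γ')
    (hf : ∀ i j, i ≠ j → ∀ a, f (x i j a) = w i j a) {i j : ι} (h : i ≠ j) (s : F) :
    f (ww x i j s) = ww w i j s := by
  simp only [ww, map_mul, hf i j h, hf j i h.symm]

lemma hh_map {Γ' : Type*} [Group Γ'] {x : ι → ι → F → Γ} {w : ι → ι → F → Γ'} (f : Γ →* Γ')
    (hf : ∀ i j, i ≠ j → ∀ a, f (x i j a) = w i j a) {i j : ι} (h : i ≠ j) (s : F) :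
    f (hh x i j s) = hh w i j s := by
  simp only [hh, map_mul, ww_map f hf h]

/-- The action of the torus elements on the basis vectors of `SL_n(F)`. -/
lemma hh_tt_single {i j : ι} (hij : i ≠ j) {s : F} (hs : s ≠ 0) (k : ι) :
    ((hh tt i j s : SpecialLinearGroup ι F) : Matrix ι ι F) *ᵥ Pi.single k (1 : F) =
      Pi.single k (if k = i then s else if k = j then s⁻¹ else 1) := by
  let φ : SpecialLinearGroup ι F →* SpecialLinearGroup ι F := MonoidHom.id _
  have hφ : ∀ i j (hij : i ≠ j) a, φ (tt i j a) = SpecialLinearGroup.transvection hij a :=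
    fun i j hij a => tt_of_ne hij a
  have hact : ∀ (g : SpecialLinearGroup ι F) (v : ι → F), (g : Matrix ι ι F) *ᵥ v = act φ g v := fun g v => rfl
  rw [hact]
  by_cases hki : k = i
  · subst hki
    rw [if_pos rfl, act_hh φ hφ hij hs]
    simp
  · rw [if_neg hki]
    by_cases hkj : k = j
    · subst hkj
      rw [if_pos rfl, hh, act_mul, act_ww_b φ hφ hij (neg_ne_zero.2 one_ne_zero), act_ww_a φ hφ hij hs]
      congr 1
      simp
    · rw [if_neg hkj]
      have hfix : ∀ (a b : ι) (c : F), a ≠ b → b ≠ k → act φ (tt a b c) (Pi.single k (1 : F)) = Pi.single k (1 : F) := by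
        intro a b c hab hb
        rw [act_x φ hφ hab]
        simp [Pi.single_apply, hb]
      rw [hh, act_mul, ww, ww, act_mul, act_mul, act_mul, act_mul, hfix i j _ hij (Ne.symm hkj), hfix j i _ hij.symm (Ne.symm hki),
        hfix i j _ hij (Ne.symm hkj), hfix i j _ hij (Ne.symm hkj), hfix j i _ hij.symm (Ne.symm hki), hfix i j _ hij (Ne.symm hkj)]

/-- The torus elements of `SL_n(F)` are multiplicative. -/
lemma mul3_tt : Mul3 (tt : ι → ι → F → SpecialLinearGroup ι F) := by
  intro i j hij s s' hs hs'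
  apply Subtype.ext
  apply Matrix.ext_of_mulVec_single
  intro k
  have e := hh_tt_single hij (mul_ne_zero hs hs') k
  have e1 := hh_tt_single hij hs k
  have e2 := hh_tt_single hij hs' k
  have : ((hh tt i j s * hh tt i j s' : SpecialLinearGroup ι F) : Matrix ι ι F) *ᵥ Pi.single k (1 : F) =
      ((hh tt i j s : SpecialLinearGroup ι F) : Matrix ι ι F) *ᵥ (((hh tt i j s' : SpecialLinearGroup ι F) : Matrix ι ι F) *ᵥ Pi.single k (1 : F)) := by
    rw [Matrix.mulVec_mulVec]
    rfl
  rw [this, e2, e]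
  have e3 : ∀ c : F, Pi.single k c = c • Pi.single k (1 : F) := by
    intro c
    ext r
    by_cases h : r = k
    · subst h
      simp
    · simp [h]
  rw [e3 (if k = i then s' else if k = j then s'⁻¹ else 1), Matrix.mulVec_smul, e1, e3 (if k = i then s else if k = j then s⁻¹ else 1),
    smul_smul, e3 (if k = i then s * s' else if k = j then (s * s')⁻¹ else 1)]
  congr 1
  by_cases hki : k = i
  · simp [hki, mul_comm]
  · by_cases hkj : k = j
    · subst hkj
      simp [hki, mul_comm]
    · simp [hki, hkj]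

/-- Relations with the multiplicativity give a homomorphism from `SL_n(F)`. -/
theorem exists_hom [Nontrivial ι] (hthird : ∀ i j : ι, ∃ k, k ≠ i ∧ k ≠ j) {y : ι → ι → F → Γ} (H : StHyp y) (hM : Mul3 y) :
    ∃ f : SpecialLinearGroup ι F →* Γ, ∀ i j (h : i ≠ j) (a : F), f (SpecialLinearGroup.transvection h a) = y i j a := by
  classical
  let P := SpecialLinearGroup ι F × Γ
  let z : ι → ι → F → P := fun i j a => (tt i j a, y i j a)
  have Hz : StHyp z := by
    refine ⟨?_, ?_, ?_⟩
    · intro i j h a b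
      exact Prod.ext (tt_add h a b) (H.add i j h a b)
    · intro i j k hij hjk hik a b
      refine Prod.ext ?_ ?_
      · have e : (MonoidHom.fst _ Γ) ⁅z i j a, z j k b⁆ = ⁅tt i j a, tt j k b⁆ := map_commutatorElement _ _ _
        exact e.trans (tt_stHyp.comm i j k hij hjk hik a b)
      · have e : (MonoidHom.snd (SpecialLinearGroup ι F) Γ) ⁅z i j a, z j k b⁆ = ⁅y i j a, y j k b⁆ := map_commutatorElement _ _ _
        exact e.trans (H.comm i j k hij hjk hik a b)
    · intro i j k l hij hkl hjk hil a b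
      exact Prod.ext (tt_stHyp.disj i j k l hij hkl hjk hil a b) (H.disj i j k l hij hkl hjk hil a b)
  have hMz : Mul3 z := by
    intro i j hij s s' hs hs'
    refine Prod.ext ?_ ?_
    · have h1 : ∀ t, (MonoidHom.fst _ Γ) (hh z i j t) = hh tt i j t :=
        fun t => hh_map (x := z) (w := tt) (MonoidHom.fst _ Γ) (fun i j _ a => rfl) hij t
      change (MonoidHom.fst _ Γ) (hh z i j (s * s')) = (MonoidHom.fst _ Γ) (hh z i j s * hh z i j s')
      rw [map_mul, h1, h1, h1]
      exact mul3_tt i j hij s s' hs hs'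
    · have h1 : ∀ t, (MonoidHom.snd (SpecialLinearGroup ι F) Γ) (hh z i j t) = hh y i j t :=
        fun t => hh_map (x := z) (w := y) (MonoidHom.snd _ Γ) (fun i j _ a => rfl) hij t
      change (MonoidHom.snd _ Γ) (hh z i j (s * s')) = (MonoidHom.snd _ Γ) (hh z i j s * hh z i j s')
      rw [map_mul, h1, h1, h1]
      exact hM i j hij s s' hs hs'
  let G' : Subgroup P := gp z fun _ _ => True
  have hmem : ∀ i j, i ≠ j → ∀ a, z i j a ∈ G' := fun i j h a => subset_closure ⟨i, j, a, h, trivial, rfl⟩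
  let X : ι → ι → F → G' := fun i j a => if h : i ≠ j then ⟨z i j a, hmem i j h a⟩ else 1
  have hX : ∀ i j, i ≠ j → ∀ a, G'.subtype (X i j a) = z i j a := by
    intro i j h a
    simp [X, h]
  have hinj : Function.Injective G'.subtype := G'.subtype_injective
  have HX : StHyp X := by
    refine ⟨?_, ?_, ?_⟩
    · intro i j h a b
      apply hinj
      rw [map_mul, hX i j h, hX i j h, hX i j h]
      exact Hz.add i j h a b
    · intro i j k hij hjk hik a b
      apply hinj
      rw [map_commutatorElement, hX i j hij, hX j k hjk, hX i k hik]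
      exact Hz.comm i j k hij hjk hik a b
    · intro i j k l hij hkl hjk hil a b
      apply hinj
      rw [map_mul, map_mul, hX i j hij, hX k l hkl]
      exact Hz.disj i j k l hij hkl hjk hil a b
  have hMX : Mul3 X := by
    intro i j hij s s' hs hs'
    apply hinj
    have h1 : ∀ t, G'.subtype (hh X i j t) = hh z i j t := fun t => hh_map G'.subtype hX hij t
    rw [map_mul, h1, h1, h1]
    exact hMz i j hij s s' hs hs'
  have hgen : gp X (fun _ _ => True) = ⊤ := by
    have hc : closure ((Subtype.val : G' → P) ⁻¹' {g | ∃ i j a, i ≠ j ∧ True ∧ g = z i j a}) = ⊤ :=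
      Subgroup.closure_closure_coe_preimage
    rw [eq_top_iff, ← hc]
    refine Subgroup.closure_mono ?_
    rintro g ⟨i, j, a, h, -, hg⟩
    refine ⟨i, j, a, h, trivial, ?_⟩
    apply hinj
    rw [hX i j h]
    exact hg
  let φ : G' →* SpecialLinearGroup ι F := (MonoidHom.fst _ Γ).comp G'.subtype
  have hφ : ∀ i j (hij : i ≠ j) a, φ (X i j a) = SpecialLinearGroup.transvection hij a := by
    intro i j hij a
    change (MonoidHom.fst _ Γ) (G'.subtype (X i j a)) = _
    rw [hX i j hij]
    exact tt_of_ne hij a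
  have hbij := bij_of_steinberg φ hφ HX hthird hMX hgen
  let e : G' ≃* SpecialLinearGroup ι F := MulEquiv.ofBijective φ hbij
  refine ⟨((MonoidHom.snd (SpecialLinearGroup ι F) Γ).comp G'.subtype).comp e.symm.toMonoidHom, ?_⟩
  intro i j h a
  have e1 : e.symm (SpecialLinearGroup.transvection h a) = X i j a := by
    rw [MulEquiv.symm_apply_eq]
    exact (hφ i j h a).symm
  change (MonoidHom.snd _ Γ) (G'.subtype (e.symm (SpecialLinearGroup.transvection h a))) = _
  rw [e1, hX i j h]
  rfl

end abs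

section e6

variable {F : Type*} [Field F]

open Cfsg.Agent.Lib.Chev Tables AxBasic Torus Mono2 Mono3

theorem hmemE6 : chevE6 ∈ [chevG2, chevB2, chevD4, chevF4, chevE6, chevE7, chevE8] := by simp

theorem tabE6 : Tab chevE6 := tab_of_mem hmemE6

lemma nroots_eq : chevE6.nroots = 72 := by decide

/-- All structure constants of the `A₅` subsystem are `1`. -/
theorem comm_data : ∀ i j k : Fin 6, i ≠ j → j ≠ k → i ≠ k →
    rt j k < 72 ∧ rt i j < 72 ∧ rt i j ≠ rt j k ∧ rt i j ≠ chevE6.neg (rt j k) ∧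
      chevE6.commTerms (rt j k) (rt i j) = [(rt i k, 1, 1, 1)] := by
  decide +kernel

theorem disj_data : ∀ i j k l : Fin 6, (i ≠ j ∧ k ≠ l ∧ j ≠ k ∧ i ≠ l ∧ ¬ (i = k ∧ j = l)) →
    rt k l < 72 ∧ rt i j < 72 ∧ rt i j ≠ rt k l ∧ rt i j ≠ chevE6.neg (rt k l) ∧
      chevE6.commTerms (rt k l) (rt i j) = [] := by
  decide +kernel

theorem neg_data : ∀ i j : Fin 6, i ≠ j → chevE6.neg (rt i j) = rt j i ∧ rt i j < 72 := by
  decide +kernel

theorem rt_lt : ∀ i j : Fin 6, rt i j < 72 := by
  decide +kernel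

variable (ax : Ax chevE6 F)

/-- The root elements of `SL₆`. -/
noncomputable def yE (i j : Fin 6) (a : F) : GL chevE6.Idx F := xG ax (rt i j) (-a)

lemma yE_disj {i j k l : Fin 6} (hij : i ≠ j) (hkl : k ≠ l) (hjk : j ≠ k) (hil : i ≠ l) (a b : F) :
    Commute (yE ax i j a) (yE ax k l b) := by
  by_cases h : i = k ∧ j = l
  · obtain ⟨rfl, rfl⟩ := h
    show xG ax _ _ * xG ax _ _ = xG ax _ _ * xG ax _ _
    rw [xG_add, xG_add, add_comm]
  · obtain ⟨h1, h2, h3, h4, h5⟩ := disj_data i j k l ⟨hij, hkl, hjk, hil, h⟩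
    show xG ax _ _ * xG ax _ _ = xG ax _ _ * xG ax _ _
    rw [xG_comm ax (r := rt k l) (s := rt i j) (by rw [nroots_eq]; exact h1) (by rw [nroots_eq]; exact h2) h3 h4 (-b) (-a)]
    simp [ChevalleyDatum.commWord, h5, wordG]

theorem stHyp_yE : StHyp (yE ax (F := F)) := by
  refine ⟨?_, ?_, ?_⟩
  · intro i j h a b
    simp only [yE]
    rw [xG_add, neg_add]
  · intro i j k hij hjk hik a b
    obtain ⟨h1, h2, h3, h4, h5⟩ := comm_data i j k hij hjk hik
    have e := xG_comm ax (r := rt j k) (s := rt i j) (by rw [nroots_eq]; exact h1) (by rw [nroots_eq]; exact h2) h3 h4 (-b) (-a)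
    have e2 : wordG ax (chevE6.commWord F (rt j k) (rt i j) (-b) (-a)) = yE ax i k (a * b) := by
      simp only [ChevalleyDatum.commWord, h5, wordG, List.map_cons, List.map_nil, List.prod_cons, List.prod_nil, mul_one, yE]
      congr 1
      push_cast
      ring
    rw [e2] at e
    change yE ax i j a * yE ax j k b = yE ax j k b * yE ax i j a * yE ax i k (a * b) at e
    have c1 : Commute (yE ax i j a) (yE ax i k (a * b)) := yE_disj ax hij hik (Ne.symm hij) hik _ _
    have c2 : Commute (yE ax j k b) (yE ax i k (a * b)) := yE_disj ax hjk hik (Ne.symm hik) hjk _ _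
    rw [commutatorElement_def, e]
    calc yE ax j k b * yE ax i j a * yE ax i k (a * b) * (yE ax i j a)⁻¹ * (yE ax j k b)⁻¹
        = yE ax j k b * (yE ax i j a * yE ax i k (a * b) * (yE ax i j a)⁻¹) * (yE ax j k b)⁻¹ := by group
      _ = yE ax j k b * yE ax i k (a * b) * (yE ax j k b)⁻¹ := by
        rw [c1.eq]
        group
      _ = yE ax i k (a * b) := by
        rw [c2.eq]
        group
  · intro i j k l hij hkl hjk hil a b
    exact yE_disj ax hij hkl hjk hil a b

lemma hG_mul (r : ℕ) (hr : r < 72) (c c' : Fˣ) :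
    hG ax r ((c * c' : Fˣ) : F) = hG ax r (c : F) * hG ax r (c' : F) := by
  have hr' : r < chevE6.nroots := by
    rw [nroots_eq]
    exact hr
  rw [hG_eq_tor ax tabE6 hr', hG_eq_tor ax tabE6 hr', hG_eq_tor ax tabE6 hr', ← tor_mul]
  congr 1
  funext j
  simp [hW, mul_zpow]

/-- `ww` in terms of `n_r`. -/
lemma ww_yE {i j : Fin 6} (h : i ≠ j) (s : F) : ww (yE ax) i j s = nG ax (rt i j) (-s) := by
  obtain ⟨h1, h2⟩ := neg_data i j h
  simp only [ww, yE, nG, h1]
  congr 2
  congr 1
  simp

/-- `hh` in terms of `h_r`. -/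
lemma hh_yE {i j : Fin 6} (h : i ≠ j) {s : F} (hs : s ≠ 0) : hh (yE ax) i j s = hG ax (rt i j) s := by
  obtain ⟨h1, h2⟩ := neg_data i j h
  have hm1 : (-1 : F) ≠ 0 := neg_ne_zero.2 one_ne_zero
  have e1 : hh (yE ax) i j s = nG ax (rt i j) (-s) * nG ax (rt i j) 1 := by
    rw [hh, ww_yE ax h, ww_yE ax h, neg_neg]
  have e2 : nG ax (rt i j) (-s) = hG ax (rt i j) (-s) * nG ax (rt i j) 1 := nG_eq_hG_mul ax _ _
  have e3 : hG ax (rt i j) (-1) = (nG ax (rt i j) 1 * nG ax (rt i j) 1)⁻¹ := by
    have e4 : nG ax (rt i j) (-1) = (nG ax (rt i j) 1)⁻¹ := (nG_inv ax _ _).symm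
    simp only [hG, e4, _root_.mul_inv_rev]
  have e5 : hG ax (rt i j) (-s) = hG ax (rt i j) s * hG ax (rt i j) (-1) := by
    have := hG_mul ax (rt i j) h2 (Units.mk0 s hs) (Units.mk0 (-1 : F) hm1)
    simpa using this
  rw [e1, e2, e5, e3]
  group

theorem mul3_yE : Mul3 (yE ax (F := F)) := by
  intro i j hij s s' hs hs'
  rw [hh_yE ax hij (mul_ne_zero hs hs'), hh_yE ax hij hs, hh_yE ax hij hs']
  have := hG_mul ax (rt i j) (neg_data i j hij).2 (Units.mk0 s hs) (Units.mk0 s' hs')
  simpa using this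

/-- The homomorphism `SL₆(F) → E₆(F)`. -/
theorem exists_slh : ∃ f : Matrix.SpecialLinearGroup (Fin 6) F →* ↥(chevE6.group F),
    ∀ i j (h : i ≠ j) (a : F), ((f (Matrix.SpecialLinearGroup.transvection h a) : ↥(chevE6.group F)) : GL chevE6.Idx F) =
      xG ax (rt i j) (-1 * a) := by
  obtain ⟨f, hf⟩ := exists_hom (ι := Fin 6) (by decide) (stHyp_yE ax) (mul3_yE ax)
  have hmem : ∀ x, f x ∈ chevE6.group F := by
    intro x
    have hx : x ∈ Subgroup.closure {t : Matrix.SpecialLinearGroup (Fin 6) F | ∃ (i j : Fin 6) (hij : i ≠ j) (a : F),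
        t = Matrix.SpecialLinearGroup.transvection hij a} := by
      rw [Cfsg.Agent.Lib.Classical.Transvections.closure_transvections_eq_top]
      trivial
    induction hx using Subgroup.closure_induction with
    | mem x hx =>
      obtain ⟨i, j, hij, a, rfl⟩ := hx
      rw [hf i j hij a]
      exact xG_mem_group ax (by rw [nroots_eq]; exact rt_lt i j) _
    | one => simp [one_mem]
    | mul x y _ _ hx hy =>
      rw [map_mul]
      exact mul_mem hx hy
    | inv x _ hx =>
      rw [map_inv]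
      exact inv_mem hx
  refine ⟨f.codRestrict _ hmem, ?_⟩
  intro i j h a
  change f _ = _
  rw [hf i j h a, neg_one_mul]
  rfl

end e6

/-- The order of the group divides `NN q`. -/
theorem card_dvd' (F : Type*) [Field F] [Fintype F] : Nat.card ↥(chevE6.group F) ∣ NN (Fintype.card F) := by
  have h := Cfsg.Agent.S1063.result (F := F) rfl
  refine ⟨Nat.gcd 3 (Fintype.card F - 1), ?_⟩
  rw [mul_comm, h, NN]
  ring

end Cfsg.Agent.Lib.MinE6.SLHom
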